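import Cfsg.Agent.Lib.Helper19.Suza.DataB

/-! Generated file: Todd–Coxeter certificate data and checks. -/

set_option autoImplicit false
set_option maxRecDepth 1000000

namespace Cfsg.Agent.Lib.Helper19.Suza

open Cfsg.Agent.Lib.Helper19.TCS

theorem link_ok : loop (chkLS cert cB tFIN 7) 0 7524 = true := by decide +kernel

theorem lab_ok : loop (chkT cert cB tFIN tLAB) 0 1782 = true := by decide +kernel

theorem fix_ok : chkCl cB sgw 0 1 0 = true := by decide +kernel

end Cfsg.Agent.Lib.Helper19.Suza
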